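import Cfsg.Agent.Lib.FFourTwoCover.Packed
import Cfsg.Agent.Lib.FFourTwoCover.Data0
import Cfsg.Agent.Lib.FFourTwoCover.Data1
import Cfsg.Agent.Lib.FFourTwoCover.Data2
import Cfsg.Agent.Lib.FFourTwoCover.Data3
import Cfsg.Prelude.Def_ChevF4
import Cfsg.Prelude.Def_ChevStructure

/-! The tests of the Steinberg relations up to sign. -/

set_option autoImplicit false

namespace CfsgLib.FFourTwoCover

open Cfsg.Lie

/-- The identity matrix. -/
noncomputable def one : ℕ := maskRec 1 1696 52

/-- The root matrix. -/
def gx (r : ℕ) : ℕ :=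
  match r / 12 with
  | 0 => part0.getD (r % 12) 0
  | 1 => part1.getD (r % 12) 0
  | 2 => part2.getD (r % 12) 0
  | _ => part3.getD (r % 12) 0

/-- The roots occurring with an odd coefficient. -/
def oddTerms (r s : ℕ) : List ℕ :=
  ((chevF4.commTerms r s).filter fun c => decide (c.2.1 % 2 ≠ 0)).map fun c => c.1

/-- The product of root matrices. -/
noncomputable def gProd : List ℕ → ℕ
  | [] => one
  | k :: ks => mul (gx k) (gProd ks)

/-- The commutator of two root matrices. -/
noncomputable def comMat (r s : ℕ) : ℕ := mul (mul (mul (gx s) (gx r)) (gx s)) (gx r)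

/-- Equal up to sign. -/
noncomputable def pmB (A B : ℕ) : Bool := Nat.beq A B || Nat.beq A (neg B)

/-- One relation of type (R2). -/
noncomputable def relB (r s : ℕ) : Bool :=
  Nat.beq s r || Nat.beq s (chevF4.neg r) || pmB (comMat r s) (gProd (oddTerms r s))

/-- The relations with the given first root. -/
noncomputable def rowB (r : ℕ) : Bool := (List.range 48).all (relB r)

/-- The two relations at one root. -/
noncomputable def selfB (r : ℕ) : Bool :=
  okB (gx r) && Nat.beq (mul (gx r) (gx r)) one &&
    pmB (mul (mul (gx r) (gx (chevF4.neg r))) (mul (mul (gx r) (gx r)) (mul (gx (chevF4.neg r)) (gx r)))) one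

end CfsgLib.FFourTwoCover
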