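import Cfsg.Agent.Lib.FFourTwoCover.Rows
import Cfsg.Agent.Lib.SteinbergPres.KernelAll
import Cfsg.Agent.Lib.ChevMult.Base
import Cfsg.Prelude.Def_KGroupFacts

/-!
The twofold cover of the group of type `F₄` over two elements: the Steinberg relations hold up to sign for
48 involutory matrices of size 52 over `ZMod 11`, and the pullback of the resulting projective representation is
a stem extension.
-/

set_option autoImplicit false
set_option maxRecDepth 10000

namespace CfsgLib.FFourTwoCover

open Cfsg.Lie CfsgLib.ChevMult CfsgLib.Chevalley CfsgLib.SteinbergPres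
open scoped commutatorElement

universe u

attribute [local irreducible] mul neg one gx comMat gProd maskRec mat ent okB pmB rowB selfB relB oddTerms

theorem mat_one : OK one ∧ mat one = 1 := by
  refine ⟨ok_of_okB ok_one, Matrix.ext fun i j => ?_⟩
  have h := Nat.eq_of_beq_eq_true
    (List.all_eq_true.1 (List.all_eq_true.1 one_entries i.1 (List.mem_range.2 i.2)) j.1 (List.mem_range.2 j.2))
  unfold mat
  rw [Matrix.of_apply, h, Matrix.one_apply]
  by_cases hij : i = j
  · subst hij
    simp
  · rw [if_neg hij]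
    have : Nat.beq i.1 j.1 = false := by
      rw [Bool.eq_false_iff]
      exact fun e => hij (Fin.ext (Nat.eq_of_beq_eq_true e))
    rw [this]
    simp

/-- The ring of matrices. -/
abbrev M52 : Type := Matrix (Fin 52) (Fin 52) (ZMod 11)

theorem ok_gx {r : ℕ} (hr : r < 48) : OK (gx r) := by
  have h := selfB_true hr
  unfold selfB at h
  simp only [Bool.and_eq_true] at h
  exact ok_of_okB h.1.1

theorem gx_sq {r : ℕ} (hr : r < 48) : mat (gx r) * mat (gx r) = 1 := by
  have h := selfB_true hr
  unfold selfB at h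
  simp only [Bool.and_eq_true] at h
  rw [← (mul_spec (ok_gx hr) (ok_gx hr)).2, Nat.eq_of_beq_eq_true h.1.2]
  exact mat_one.2

/-- The involution attached to a root. -/
noncomputable def U (r : ℕ) : M52ˣ :=
  if h : r < 48 then ⟨mat (gx r), mat (gx r), gx_sq h, gx_sq h⟩ else 1

theorem val_U {r : ℕ} (hr : r < 48) : ((U r : M52ˣ) : M52) = mat (gx r) := by
  rw [U, dif_pos hr]

theorem U_sq (r : ℕ) : U r * U r = 1 := by
  by_cases hr : r < 48
  · exact Units.ext (by rw [Units.val_mul, val_U hr, Units.val_one]; exact gx_sq hr)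
  · rw [U, dif_neg hr, one_mul]

theorem U_inv (r : ℕ) : (U r)⁻¹ = U r := inv_eq_of_mul_eq_one_right (U_sq r)

/-- The packed number represents the unit. -/
def Rep (A : ℕ) (a : M52ˣ) : Prop := OK A ∧ mat A = (a : M52)

theorem rep_mul {A B : ℕ} {a b : M52ˣ} (ha : Rep A a) (hb : Rep B b) : Rep (mul A B) (a * b) :=
  ⟨(mul_spec ha.1 hb.1).1, by rw [(mul_spec ha.1 hb.1).2, ha.2, hb.2, Units.val_mul]⟩

theorem rep_neg {A : ℕ} {a : M52ˣ} (ha : Rep A a) : Rep (neg A) (-a) :=
  ⟨(neg_spec ha.1).1, by rw [(neg_spec ha.1).2, ha.2, Units.val_neg]⟩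

theorem rep_one : Rep one 1 := ⟨mat_one.1, by rw [mat_one.2, Units.val_one]⟩

theorem rep_U {r : ℕ} (hr : r < 48) : Rep (gx r) (U r) := ⟨ok_gx hr, (val_U hr).symm⟩

theorem rep_eq {A : ℕ} {a b : M52ˣ} (ha : Rep A a) (hb : Rep A b) : a = b :=
  Units.ext (ha.2.symm.trans hb.2)

theorem rep_gProd : ∀ l : List ℕ, (∀ k ∈ l, k < 48) → Rep (gProd l) (l.map U).prod
  | [], _ => by
    unfold gProd
    exact rep_one
  | k :: l, h => by
    rw [List.map_cons, List.prod_cons, gProd]
    exact rep_mul (rep_U (h k List.mem_cons_self)) (rep_gProd l fun x hx => h x (List.mem_cons_of_mem _ hx))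

theorem rep_comMat {r s : ℕ} (hr : r < 48) (hs : s < 48) :
    Rep (comMat r s) ((U s)⁻¹ * (U r)⁻¹ * U s * U r) := by
  unfold comMat
  rw [U_inv, U_inv]
  exact rep_mul (rep_mul (rep_mul (rep_U hs) (rep_U hr)) (rep_U hs)) (rep_U hr)

/-- The two scalars of order at most two. -/
def signs : Subgroup M52ˣ := Subgroup.zpowers (-1)

theorem signs_central {z : M52ˣ} (hz : z ∈ signs) (g : M52ˣ) : Commute g z := by
  obtain ⟨n, rfl⟩ := Subgroup.mem_zpowers_iff.1 hz
  exact (Commute.neg_one_right g).zpow_right n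

instance signs_normal : signs.Normal := ⟨fun z hz g => by
  rw [(signs_central hz g).eq, mul_inv_cancel_right]
  exact hz⟩

theorem mem_signs {z : M52ˣ} (hz : z ∈ signs) : z = 1 ∨ z = -1 := by
  obtain ⟨n, rfl⟩ := Subgroup.mem_zpowers_iff.1 hz
  rcases Int.even_or_odd n with h | h
  · exact Or.inl h.neg_one_zpow
  · exact Or.inr h.neg_one_zpow

theorem neg_one_ne : (-1 : M52ˣ) ≠ 1 := fun he => by
  have h : (((-1 : M52ˣ) : M52)) 0 0 = ((1 : M52ˣ) : M52) 0 0 := by rw [he]
  rw [Units.val_neg, Units.val_one, Matrix.neg_apply, Matrix.one_apply_eq] at h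
  exact absurd h (by decide)

/-- The quotient by the signs. -/
abbrev PM : Type := M52ˣ ⧸ signs

/-- The projection. -/
noncomputable def proj : M52ˣ →* PM := QuotientGroup.mk' signs

theorem proj_neg (a : M52ˣ) : proj (-a) = proj a := by
  have h : proj (-1 : M52ˣ) = 1 := (QuotientGroup.eq_one_iff _).2 (Subgroup.mem_zpowers _)
  rw [show -a = a * -1 by rw [mul_neg_one], map_mul, h, mul_one]

theorem proj_of_pm {A B : ℕ} {a b : M52ˣ} (ha : Rep A a) (hb : Rep B b) (h : pmB A B = true) :
    proj a = proj b := by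
  unfold pmB at h
  rw [Bool.or_eq_true] at h
  rcases h with h | h
  · cases Nat.eq_of_beq_eq_true h
    rw [rep_eq ha hb]
  · cases Nat.eq_of_beq_eq_true h
    rw [rep_eq ha (rep_neg hb), proj_neg]

section Word

variable {F : Type*} [Field F] (hF : ∀ s : F, s = 0 ∨ s = 1)
include hF

theorem two_zero : (1 : F) + 1 = 0 :=
  (hF (1 + 1)).resolve_right fun h => one_ne_zero (α := F) (add_eq_left.1 h)

theorem neg_self (t : F) : -t = t := by
  refine neg_eq_of_add_eq_zero_left ?_
  rcases hF t with rfl | rfl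
  · exact add_zero 0
  · exact two_zero hF

theorem cast_int (C : ℤ) : (C : F) = if C % 2 ≠ 0 then 1 else 0 := by
  have h2 : ((2 : ℤ) : F) = 0 := by
    rw [show (2 : ℤ) = 1 + 1 from rfl, Int.cast_add, Int.cast_one]
    exact two_zero hF
  have e : (C : F) = ((C % 2 : ℤ) : F) := by
    conv_lhs => rw [← Int.mul_ediv_add_emod C 2]
    rw [Int.cast_add, Int.cast_mul, h2, zero_mul, zero_add]
  rw [e]
  rcases Int.emod_two_eq_zero_or_one C with h | h <;> simp [h]

theorem commWord_prod {G : Type*} [Monoid G] (X : ℕ → F → G) (hX : ∀ k, X k 0 = 1) (r s : ℕ) :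
    ((chevF4.commWord F r s 1 1).map fun p => X p.1 p.2).prod = ((oddTerms r s).map fun k => X k 1).prod := by
  rw [ChevalleyDatum.commWord, List.map_map]
  unfold oddTerms
  generalize chevF4.commTerms r s = l
  induction l with
  | nil => rfl
  | cons c l ih =>
    rw [List.map_cons, List.prod_cons, ih, Function.comp_apply]
    dsimp only
    rw [neg_self hF, one_pow, one_pow, mul_one, mul_one, cast_int hF]
    by_cases hc : c.2.1 % 2 = 0
    · rw [if_neg (not_not.2 hc), hX, one_mul, List.filter_cons_of_neg (by simp [hc])]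
    · rw [if_pos hc, List.filter_cons_of_pos (by simp [hc]), List.map_cons, List.map_cons, List.prod_cons]

end Word

theorem commTerms_exp {r s : ℕ} {c : ℕ × ℤ × ℕ × ℕ} (h : c ∈ chevF4.commTerms r s) :
    c.2.2.1 ≠ 0 ∧ c.2.2.2 ≠ 0 := by
  rw [ChevalleyDatum.commTerms] at h
  obtain ⟨a, ha, hc⟩ := List.mem_filterMap.1 h
  obtain ⟨k, -, rfl⟩ := Option.map_eq_some_iff.1 hc
  simp only [List.mem_cons, List.not_mem_nil, or_false] at ha
  rcases ha with rfl | rfl | rfl | rfl | rfl | rfl | rfl <;> exact ⟨by simp, by simp⟩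

section Hom

variable {F : Type*} [Field F] (hF : ∀ s : F, s = 0 ∨ s = 1)

open Classical in
/-- The projective image of a root element. -/
noncomputable def X (r : ℕ) (t : F) : PM := if t = 0 then 1 else proj (U r)

theorem X_zero (r : ℕ) : X (F := F) r 0 = 1 := by simp [X]

theorem X_one (r : ℕ) : X (F := F) r 1 = proj (U r) := by simp [X]

/-- The values at the generators. -/
noncomputable def genMap (p : Fin chevF4.nroots × F) : PM := X p.1.1 p.2

theorem lift_stX (r : ℕ) (t : F) : FreeGroup.lift (genMap (F := F)) (chevF4.stX r t) = X r t := by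
  unfold ChevalleyDatum.stX
  split
  · rw [FreeGroup.lift_apply_of]; rfl
  · next h =>
    rw [map_one, X]
    split
    · rfl
    · rw [U, dif_neg (show ¬r < 48 from h), map_one]

theorem lift_stWord (w : List (ℕ × F)) :
    FreeGroup.lift (genMap (F := F)) (chevF4.stWord w) = (w.map fun p => X p.1 p.2).prod := by
  rw [ChevalleyDatum.stWord, map_list_prod, List.map_map]
  exact congrArg List.prod (List.map_congr_left fun p _ => lift_stX p.1 p.2)

include hF in
theorem rels_hold : ∀ g ∈ chevF4.steinbergRels F, FreeGroup.lift (genMap (F := F)) g = 1 := by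
  rintro g ((⟨r, t₁, t₂, hr, rfl⟩ | ⟨r, s, t, u, hr, hs, h1, h2, rfl⟩) | ⟨r, t₁, t₂, hr, ht₁, ht₂, rfl⟩)
  · rw [map_mul, map_mul, map_inv, lift_stX, lift_stX, lift_stX, mul_inv_eq_one]
    rcases hF t₁ with rfl | rfl
    · rw [X_zero, one_mul, zero_add]
    rcases hF t₂ with rfl | rfl
    · rw [X_zero, mul_one, add_zero]
    rw [two_zero hF, X_zero, X_one, ← map_mul, U_sq, map_one]
  · rw [map_mul, map_mul, map_mul, map_mul, map_inv, map_inv, map_inv, lift_stX, lift_stX, lift_stWord,
      mul_inv_eq_one]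
    have hz : t = 0 ∨ u = 0 →
        ((chevF4.commWord F r s t u).map fun p => X p.1 p.2).prod = (1 : PM) := fun h => by
      refine List.prod_eq_one fun x hx => ?_
      rw [ChevalleyDatum.commWord, List.map_map] at hx
      obtain ⟨c, hc, rfl⟩ := List.mem_map.1 hx
      obtain ⟨e1, e2⟩ := commTerms_exp hc
      rcases h with rfl | rfl <;> simp [zero_pow e1, zero_pow e2, X_zero]
    rcases hF t with rfl | rfl
    · rw [hz (Or.inl rfl)]
      simp [X_zero]
    rcases hF u with rfl | rfl
    · rw [hz (Or.inr rfl)]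
      simp [X_zero]
    have hrel := relB_true (r := r) (s := s) hr hs
    unfold relB at hrel
    simp only [Bool.or_eq_true] at hrel
    have hp : pmB (comMat r s) (gProd (oddTerms r s)) = true := by
      rcases hrel with (h | h) | h
      · exact absurd (Nat.eq_of_beq_eq_true h) h1
      · exact absurd (Nat.eq_of_beq_eq_true h) h2
      · exact h
    have hl := fun k (hk : k ∈ oddTerms r s) => oddTerms_lt hr hs hk
    have e := proj_of_pm (rep_comMat hr hs) (rep_gProd _ hl) hp
    rw [map_list_prod, List.map_map, map_mul, map_mul, map_mul, map_inv, map_inv] at e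
    rw [commWord_prod hF X (fun k => X_zero k), X_one, X_one, e]
    exact congrArg List.prod (List.map_congr_left fun k _ => (X_one k).symm)
  · obtain rfl := (hF t₁).resolve_left ht₁
    obtain rfl := (hF t₂).resolve_left ht₂
    rw [mul_one, mul_inv_cancel_right]
    rw [ChevalleyDatum.stH, lift_stWord, ChevalleyDatum.hWord, ChevalleyDatum.nWord, ChevalleyDatum.nWord]
    simp only [inv_one, neg_self hF, List.cons_append, List.nil_append, List.map_cons, List.map_nil,
      List.prod_cons, List.prod_nil, X_one, mul_one, ← map_mul]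
    have h := selfB_true (show r < 48 from hr)
    unfold selfB at h
    simp only [Bool.and_eq_true] at h
    have hn := neg_lt (show r < 48 from hr)
    have h' := proj_of_pm (rep_mul (rep_mul (rep_U hr) (rep_U hn))
      (rep_mul (rep_mul (rep_U hr) (rep_U hr)) (rep_mul (rep_U hn) (rep_U hr)))) rep_one h.2
    rw [map_one] at h'
    simpa only [mul_assoc] using h'

/-- The projective representation of Steinberg's group. -/
noncomputable def psi : chevF4.SteinbergGroup F →* PM :=
  PresentedGroup.toGroup (f := genMap (F := F)) (rels_hold hF)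

theorem psi_gen (r : ℕ) (t : F) : psi hF (chevF4.stGen F r t) = X r t := by
  rw [← lift_stX r t]
  rfl

end Hom

set_option maxHeartbeats 1000000 in
/-- A stem extension with kernel of order two. -/
theorem exists_cover {A : Aux} {F : Type u} [Field F] [Finite F] (h : Full chevF4 A)
    (hF : ∀ s : F, s = 0 ∨ s = 1) :
    ∃ (Γ : Type u) (_ : Group Γ) (_ : Finite Γ) (σ : Γ →* ↥(chevF4.group F)) (w : Γ),
      Cfsg.IsStemExtension σ ∧ w ∈ σ.ker ∧ w * w = 1 ∧ w ≠ 1 ∧ ∀ z ∈ σ.ker, z = 1 ∨ z = w := by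
  classical
  have hsub : Subsingleton Fˣ := ⟨fun a b => Units.ext (by
    rw [(hF a).resolve_left a.ne_zero, (hF b).resolve_left b.ne_zero])⟩
  have hcen : Subgroup.center (chevF4.SteinbergGroup F) = ⊥ := by
    obtain ⟨σ, η, cart, coro, par, dep, w0, C, hE⟩ := hasStCert_of_mem h.mem F
    rw [eq_bot_iff]
    intro g hg
    obtain ⟨c, rfl⟩ := C.exists_torPhi h hE (C.ker_le_tor h hE (C.center_le_ker h hE hg))
    rw [Subsingleton.elim c 1, map_one]
    exact one_mem _
  let e := MulEquiv.ofBijective (thetaGroup (K := F) h)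
    ⟨(MonoidHom.ker_eq_bot_iff _).1 (by rw [ker_thetaGroup h, hcen]), thetaGroup_surjective h⟩
  let φ : ↥(chevF4.group F) →* PM := (psi hF).comp e.symm.toMonoidHom
  let x : ℕ → ↥(chevF4.group F) := fun r => xg h.toStd.cert r 1
  have hφ : ∀ r < 48, φ (x r) = proj (U r) := fun r hr => by
    have he : x r = e (chevF4.stGen F r 1) :=
      Subtype.ext (Units.ext ((coe_xG h.toStd.cert r 1).trans (thetaGroup_gen h hr (1 : F)).symm))
    show psi hF (e.symm (x r)) = _
    rw [he, e.symm_apply_apply, psi_gen, X_one]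
  let Γ := MonoidHom.eqLocus (φ.comp (MonoidHom.fst ↥(chevF4.group F) M52ˣ))
    (proj.comp (MonoidHom.snd ↥(chevF4.group F) M52ˣ))
  let σ : ↥Γ →* ↥(chevF4.group F) := (MonoidHom.fst _ _).comp Γ.subtype
  have hmem : ∀ p : ↥(chevF4.group F) × M52ˣ, p ∈ Γ ↔ φ p.1 = proj p.2 := fun p => Iff.rfl
  have hker : ∀ z ∈ σ.ker, (z).1.1 = 1 ∧ ((z).1.2 = 1 ∨ (z).1.2 = -1) := fun z hz => by
    have h1 : (z).1.1 = 1 := MonoidHom.mem_ker.1 hz
    have h2 := (hmem _).1 z.2
    rw [h1, map_one, eq_comm] at h2
    exact ⟨h1, mem_signs ((QuotientGroup.eq_one_iff _).1 h2)⟩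
  have hw : ((1, -1) : ↥(chevF4.group F) × M52ˣ) ∈ Γ := by
    rw [hmem, map_one, proj_neg, map_one]
  let w : ↥Γ := ⟨(1, -1), hw⟩
  refine ⟨↥Γ, inferInstance, inferInstance, σ, w, ⟨fun g => ?_, fun z hz => ?_, fun z hz => ?_⟩, rfl, ?_, ?_,
    fun z hz => ?_⟩
  · obtain ⟨m, hm⟩ := QuotientGroup.mk'_surjective signs (φ g)
    exact ⟨⟨(g, m), (hmem _).2 hm.symm⟩, rfl⟩
  · rw [Subgroup.mem_center_iff]
    intro g
    obtain ⟨h1, h2⟩ := hker z hz
    refine Subtype.ext (Prod.ext ?_ ?_)
    · show (g).1.1 * (z).1.1 = (z).1.1 * (g).1.1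
      rw [h1, one_mul, mul_one]
    · show (g).1.2 * (z).1.2 = (z).1.2 * (g).1.2
      rcases h2 with h2 | h2 <;> rw [h2] <;> simp
  · -- the lifts of the root elements and their commutators
    let l : ∀ r, r < 48 → ↥Γ := fun r hr => ⟨(x r, U r), (hmem _).2 (hφ r hr)⟩
    let cm : ∀ r s, r < 48 → s < 48 → ↥Γ := fun r s hr hs => (l s hs)⁻¹ * (l r hr)⁻¹ * l s hs * l r hr
    have hcm : ∀ r s hr hs, cm r s hr hs ∈ commutator ↥Γ := fun r s hr hs => by
      have : cm r s hr hs = ⁅(l s hs)⁻¹, (l r hr)⁻¹⁆ := by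
        rw [commutatorElement_def, inv_inv, inv_inv]
      rw [this, commutator_def]
      exact Subgroup.commutator_mem_commutator (Subgroup.mem_top _) (Subgroup.mem_top _)
    have hfst : ∀ r s hr hs, s ≠ r → s ≠ chevF4.neg r →
        (cm r s hr hs).1.1 = ((oddTerms r s).map x).prod := fun r s hr hs h1 h2 =>
      (xg_comm h.toStd hr hs h1 h2 (1 : F) 1).trans
        (commWord_prod hF (fun k t => xg h.toStd.cert k t) (fun k => xg_zero _ k) r s)
    have hsnd : ∀ r s hr hs, Rep (comMat r s) (cm r s hr hs).1.2 := fun r s hr hs => rep_comMat hr hs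
    have a1 := hfst 7 14 (by decide) (by decide) (by decide) pair_ok.1
    have a2 := hfst 1 32 (by decide) (by decide) (by decide) pair_ok.2.1
    have a3 := hfst 0 29 (by decide) (by decide) (by decide) pair_ok.2.2
    rw [terms_a] at a1
    rw [terms_b] at a2
    rw [terms_c] at a3
    have b1 : (cm 7 14 (by decide) (by decide)).1.2 = U 3 := by
      have := hsnd 7 14 (by decide) (by decide)
      rw [Nat.eq_of_beq_eq_true wit_a] at this
      exact rep_eq this (rep_U (by decide))
    have b2 : (cm 1 32 (by decide) (by decide)).1.2 = U 6 := by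
      have := hsnd 1 32 (by decide) (by decide)
      rw [Nat.eq_of_beq_eq_true wit_b] at this
      exact rep_eq this (rep_U (by decide))
    have b3 : (cm 0 29 (by decide) (by decide)).1.2 = -(U 3 * U 6) := by
      have := hsnd 0 29 (by decide) (by decide)
      rw [Nat.eq_of_beq_eq_true wit_c] at this
      have hp := rep_gProd [3, 6] (by decide)
      rw [show ([3, 6].map U).prod = U 3 * U 6 by simp] at hp
      exact rep_eq this (rep_neg hp)
    have hwit : w = cm 0 29 (by decide) (by decide) *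
        (cm 7 14 (by decide) (by decide) * cm 1 32 (by decide) (by decide))⁻¹ := by
      refine Subtype.ext (Prod.ext ?_ ?_)
      · show (1 : ↥(chevF4.group F)) = (cm 0 29 (by decide) (by decide)).1.1 *
          ((cm 7 14 (by decide) (by decide)).1.1 * (cm 1 32 (by decide) (by decide)).1.1)⁻¹
        rw [a1, a2, a3]
        simp
      · show (-1 : M52ˣ) = (cm 0 29 (by decide) (by decide)).1.2 *
          ((cm 7 14 (by decide) (by decide)).1.2 * (cm 1 32 (by decide) (by decide)).1.2)⁻¹
        rw [b1, b2, b3, neg_mul, mul_inv_cancel]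
    obtain ⟨h1, h2⟩ := hker z hz
    rcases h2 with h2 | h2
    · rw [show z = 1 from Subtype.ext (Prod.ext h1 h2)]
      exact one_mem _
    · rw [show z = w from Subtype.ext (Prod.ext h1 h2), hwit]
      exact mul_mem (hcm 0 29 (by decide) (by decide))
        (inv_mem (mul_mem (hcm 7 14 (by decide) (by decide)) (hcm 1 32 (by decide) (by decide))))
  · exact Subtype.ext (Prod.ext (mul_one _) (by show (-1 : M52ˣ) * -1 = 1; rw [neg_mul_neg, mul_one]))
  · exact fun he => neg_one_ne (congrArg (fun z : ↥Γ => (z).1.2) he)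
  · obtain ⟨h1, h2⟩ := hker z hz
    rcases h2 with h2 | h2
    · exact Or.inl (Subtype.ext (Prod.ext h1 h2))
    · exact Or.inr (Subtype.ext (Prod.ext h1 h2))

end CfsgLib.FFourTwoCover
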