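import Cfsg.Agent.Lib.FFourTwoCover.Checks
import Mathlib.Tactic.IntervalCases

/-! Evaluation of the tests. -/

set_option autoImplicit false
set_option maxRecDepth 10000
set_option Elab.async false

namespace CfsgLib.FFourTwoCover

open Cfsg.Lie

theorem row0 : rowB 0 = true := by decide +kernel

theorem row1 : rowB 1 = true := by decide +kernel

theorem row2 : rowB 2 = true := by decide +kernel

theorem row3 : rowB 3 = true := by decide +kernel

theorem row4 : rowB 4 = true := by decide +kernel

theorem row5 : rowB 5 = true := by decide +kernel

theorem row6 : rowB 6 = true := by decide +kernel

theorem row7 : rowB 7 = true := by decide +kernel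

theorem row8 : rowB 8 = true := by decide +kernel

theorem row9 : rowB 9 = true := by decide +kernel

theorem row10 : rowB 10 = true := by decide +kernel

theorem row11 : rowB 11 = true := by decide +kernel

theorem row12 : rowB 12 = true := by decide +kernel

theorem row13 : rowB 13 = true := by decide +kernel

theorem row14 : rowB 14 = true := by decide +kernel

theorem row15 : rowB 15 = true := by decide +kernel

theorem row16 : rowB 16 = true := by decide +kernel

theorem row17 : rowB 17 = true := by decide +kernel

theorem row18 : rowB 18 = true := by decide +kernel

theorem row19 : rowB 19 = true := by decide +kernel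

theorem row20 : rowB 20 = true := by decide +kernel

theorem row21 : rowB 21 = true := by decide +kernel

theorem row22 : rowB 22 = true := by decide +kernel

theorem row23 : rowB 23 = true := by decide +kernel

theorem row24 : rowB 24 = true := by decide +kernel

theorem row25 : rowB 25 = true := by decide +kernel

theorem row26 : rowB 26 = true := by decide +kernel

theorem row27 : rowB 27 = true := by decide +kernel

theorem row28 : rowB 28 = true := by decide +kernel

theorem row29 : rowB 29 = true := by decide +kernel

theorem row30 : rowB 30 = true := by decide +kernel

theorem row31 : rowB 31 = true := by decide +kernel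

theorem row32 : rowB 32 = true := by decide +kernel

theorem row33 : rowB 33 = true := by decide +kernel

theorem row34 : rowB 34 = true := by decide +kernel

theorem row35 : rowB 35 = true := by decide +kernel

theorem row36 : rowB 36 = true := by decide +kernel

theorem row37 : rowB 37 = true := by decide +kernel

theorem row38 : rowB 38 = true := by decide +kernel

theorem row39 : rowB 39 = true := by decide +kernel

theorem row40 : rowB 40 = true := by decide +kernel

theorem row41 : rowB 41 = true := by decide +kernel

theorem row42 : rowB 42 = true := by decide +kernel

theorem row43 : rowB 43 = true := by decide +kernel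

theorem row44 : rowB 44 = true := by decide +kernel

theorem row45 : rowB 45 = true := by decide +kernel

theorem row46 : rowB 46 = true := by decide +kernel

theorem row47 : rowB 47 = true := by decide +kernel

theorem self0 : (List.range' 0 12).all selfB = true := by decide +kernel

theorem self1 : (List.range' 12 12).all selfB = true := by decide +kernel

theorem self2 : (List.range' 24 12).all selfB = true := by decide +kernel

theorem self3 : (List.range' 36 12).all selfB = true := by decide +kernel

theorem rowB_true {r : ℕ} (hr : r < 48) : rowB r = true := by
  interval_cases r
  · exact row0
  · exact row1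
  · exact row2
  · exact row3
  · exact row4
  · exact row5
  · exact row6
  · exact row7
  · exact row8
  · exact row9
  · exact row10
  · exact row11
  · exact row12
  · exact row13
  · exact row14
  · exact row15
  · exact row16
  · exact row17
  · exact row18
  · exact row19
  · exact row20
  · exact row21
  · exact row22
  · exact row23
  · exact row24
  · exact row25
  · exact row26
  · exact row27
  · exact row28
  · exact row29
  · exact row30
  · exact row31
  · exact row32
  · exact row33
  · exact row34
  · exact row35
  · exact row36
  · exact row37
  · exact row38
  · exact row39
  · exact row40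
  · exact row41
  · exact row42
  · exact row43
  · exact row44
  · exact row45
  · exact row46
  · exact row47

theorem selfB_true {r : ℕ} (hr : r < 48) : selfB r = true := by
  have hmem : r ∈ List.range' 0 12 ∨ r ∈ List.range' 12 12 ∨ r ∈ List.range' 24 12 ∨ r ∈ List.range' 36 12 := by
    simp only [List.mem_range'_1]; omega
  rcases hmem with h | h | h | h
  · exact List.all_eq_true.1 self0 r h
  · exact List.all_eq_true.1 self1 r h
  · exact List.all_eq_true.1 self2 r h
  · exact List.all_eq_true.1 self3 r h

theorem relB_true {r s : ℕ} (hr : r < 48) (hs : s < 48) : relB r s = true :=
  List.all_eq_true.1 (rowB_true hr) s (List.mem_range.2 hs)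

theorem range_check : (List.range 48).all (fun r => Nat.ble (chevF4.neg r + 1) 48 &&
    (List.range 48).all fun s => (oddTerms r s).all fun k => Nat.ble (k + 1) 48) = true := by decide +kernel

theorem neg_lt {r : ℕ} (hr : r < 48) : chevF4.neg r < 48 := by
  have h := List.all_eq_true.1 range_check r (List.mem_range.2 hr)
  rw [Bool.and_eq_true] at h
  exact Nat.le_of_ble_eq_true h.1

theorem oddTerms_lt {r s k : ℕ} (hr : r < 48) (hs : s < 48) (hk : k ∈ oddTerms r s) : k < 48 := by
  have h := List.all_eq_true.1 range_check r (List.mem_range.2 hr)
  rw [Bool.and_eq_true] at h
  exact Nat.le_of_ble_eq_true (List.all_eq_true.1 (List.all_eq_true.1 h.2 s (List.mem_range.2 hs)) k hk)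

theorem one_entries : (List.range 52).all (fun i => (List.range 52).all fun j =>
    Nat.beq (ent one i j) (cond (Nat.beq i j) 1 0)) = true := by decide +kernel

theorem ok_one : okB one = true := by decide +kernel

theorem wit_a : Nat.beq (comMat 7 14) (gx 3) = true := by decide +kernel

theorem wit_b : Nat.beq (comMat 1 32) (gx 6) = true := by decide +kernel

theorem wit_c : Nat.beq (comMat 0 29) (neg (gProd [3, 6])) = true := by decide +kernel

theorem terms_a : oddTerms 7 14 = [3] := by decide +kernel

theorem terms_b : oddTerms 1 32 = [6] := by decide +kernel

theorem terms_c : oddTerms 0 29 = [3, 6] := by decide +kernel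

theorem pair_ok : (14 ≠ chevF4.neg 7 ∧ 32 ≠ chevF4.neg 1 ∧ 29 ≠ chevF4.neg 0) := by decide +kernel

end CfsgLib.FFourTwoCover
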